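import Cfsg.Agent.H818.StrP.Row
import Cfsg.Agent.Lib.SolvableNormalP

/-!
# Strongly `p`-embedded subgroups of groups `X` with a normal `p'`-subgroup `K` and `X ⧸ K` solvable

`noSP_of_solvable_quot` : if `p` is odd and the Sylow `p`-subgroups of `X` are not cyclic, there is none.
-/

set_option autoImplicit false

namespace Cfsg.Agent.H822.StrP

open Cfsg Subgroup Cfsg.Agent.H818.StrP

variable {X : Type*} [Group X] [Finite X] {p : ℕ} [hp : Fact p.Prime]

/-- a strongly `p`-embedded subgroup contains an elementary abelian group of order `p ^ 2` -/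
theorem exists_elem (hp2 : p ≠ 2) {M : Subgroup X} (h : IsStronglyPEmbedded p M)
    (hnc : ∃ P : Sylow p X, ¬ IsCyclic ↥(P : Subgroup X)) :
    ∃ A : Subgroup X, A ≤ M ∧ IsElementaryAbelian p A ∧ Nat.card ↥A = p ^ 2 := by
  obtain ⟨P, hP⟩ := hnc
  obtain ⟨A, -, hA, hA2⟩ := Cfsg.Agent.S0126.result hp2 P.2 hP
  set B : Subgroup X := A.map (P : Subgroup X).subtype with hB
  have hBel : IsElementaryAbelian p B := by
    refine ⟨⟨⟨?_⟩⟩, ?_⟩
    · rintro ⟨_, a, ha, rfl⟩ ⟨_, b, hb, rfl⟩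
      have h1 := hA.1.is_comm.comm (⟨a, ha⟩ : ↥A) ⟨b, hb⟩
      have h2 := congrArg (fun z : ↥A => ((z : ↥(P : Subgroup X)) : X)) h1
      exact Subtype.ext h2
    · rintro _ ⟨a, ha, rfl⟩
      have h1 := hA.2 a ha
      exact congrArg Subtype.val h1
  have hBc : Nat.card ↥B = p ^ 2 := by
    rw [hB, Subgroup.card_map_of_injective (Subgroup.subtype_injective _)]
    exact hA2
  have hBp : IsPGroup p ↥B := IsPGroup.of_card hBc
  obtain ⟨g, hg⟩ := exists_conj_mem h hBp
  refine ⟨B.map (MulAut.conj g).toMonoidHom, hg, ?_, ?_⟩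
  · refine ⟨⟨⟨?_⟩⟩, ?_⟩
    · rintro ⟨_, a, ha, rfl⟩ ⟨_, b, hb, rfl⟩
      have h1 := hBel.1.is_comm.comm (⟨a, ha⟩ : ↥B) ⟨b, hb⟩
      have h2 : a * b = b * a := congrArg Subtype.val h1
      refine Subtype.ext ?_
      change (MulAut.conj g) a * (MulAut.conj g) b = (MulAut.conj g) b * (MulAut.conj g) a
      rw [← map_mul, h2, map_mul]
    · rintro _ ⟨a, ha, rfl⟩
      have h1 := hBel.2 a ha
      change ((MulAut.conj g) a) ^ p = 1
      rw [← map_pow, h1, map_one]
  · rw [Subgroup.card_map_of_injective (MulAut.conj g).injective]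
    exact hBc

/-- **Solvable modulo a normal `p'`-subgroup, noncyclic Sylow `p`-subgroups: no strongly `p`-embedded subgroup.** -/
theorem noSP_of_solvable_quot (hp2 : p ≠ 2) {K : Subgroup X} [K.Normal] (hK : ¬ p ∣ Nat.card K)
    (hs : Group.IsSolvable (X ⧸ K)) (hnc : ∃ P : Sylow p X, ¬ IsCyclic ↥(P : Subgroup X)) : NoSP p X := by
  intro M hM
  -- every normal `p'`-subgroup lies in every strongly `p`-embedded subgroup
  have hle : ∀ M : Subgroup X, IsStronglyPEmbedded p M → ∀ V : Subgroup X, V.Normal →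
      ¬ p ∣ Nat.card V → V ≤ M := by
    intro M hM V hV hVp
    obtain ⟨A, hAM, hA, hA2⟩ := exists_elem hp2 hM hnc
    refine coprime_le hM hA hA2.ge hAM hVp ?_
    rw [Subgroup.normalizer_eq_top]
    exact le_top
  -- a maximal one above `K`
  obtain ⟨V, ⟨hVn, hVp, hKV⟩, hVmax⟩ : ∃ V : Subgroup X, (V.Normal ∧ ¬ p ∣ Nat.card V ∧ K ≤ V) ∧
      ∀ W : Subgroup X, (W.Normal ∧ ¬ p ∣ Nat.card W ∧ K ≤ W) → V ≤ W → W = V := by
    have hfin : (Set.univ : Set (Subgroup X)).Finite := Set.toFinite _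
    obtain ⟨V, hV, hmax⟩ := (hfin.subset (Set.subset_univ
      {W : Subgroup X | W.Normal ∧ ¬ p ∣ Nat.card W ∧ K ≤ W})).exists_maximal ⟨K, inferInstance, hK, le_rfl⟩
    exact ⟨V, hV, fun W hW hVW => le_antisymm (hmax hW hVW) hVW⟩
  have hsV : Group.IsSolvable (X ⧸ V) := by
    have hsurj : Function.Surjective (QuotientGroup.map K V (MonoidHom.id X) hKV) := by
      intro y
      obtain ⟨x, rfl⟩ := QuotientGroup.mk_surjective y
      exact ⟨QuotientGroup.mk x, rfl⟩
    exact Group.isSolvable_of_surjective hsurj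
  have hpX : p ∣ Nat.card X := (EvenType.StrongP.dvd_card hM).trans (Subgroup.card_subgroup_dvd_card M)
  have hnt : Nontrivial (X ⧸ V) := by
    rw [← not_subsingleton_iff_nontrivial, QuotientGroup.subsingleton_iff]
    rintro rfl
    exact hVp (by rwa [Subgroup.card_top])
  obtain ⟨q, N, hq, hNn, hNq, -, hN1⟩ := Cfsg.Agent.Lib.SolvableNormalP.exists_normal_pSubgroup (X ⧸ V)
  set L : Subgroup X := N.comap (QuotientGroup.mk' V) with hL
  have hVL : V ≤ L := by
    intro x hx
    change (QuotientGroup.mk' V) x ∈ N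
    have : (QuotientGroup.mk' V) x = 1 := (QuotientGroup.eq_one_iff x).2 hx
    rw [this]
    exact one_mem _
  have hLn : L.Normal := hNn.comap _
  have hcardL : Nat.card L = Nat.card V * Nat.card N := by
    have h1 : L.index = N.index :=
      Subgroup.index_comap_of_surjective N (QuotientGroup.mk'_surjective V)
    have h2 : Nat.card L * L.index = Nat.card X := Subgroup.card_mul_index L
    have h3 : Nat.card V * V.index = Nat.card X := Subgroup.card_mul_index V
    have h4 : V.index = Nat.card (X ⧸ V) := rfl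
    have h5 : Nat.card N * N.index = Nat.card (X ⧸ V) := Subgroup.card_mul_index N
    have h6 : 0 < N.index := Nat.pos_of_ne_zero Subgroup.index_ne_zero_of_finite
    apply Nat.eq_of_mul_eq_mul_right h6
    rw [← h1, h2, ← h3, h4, ← h5, h1]
    ring
  -- `q = p`
  have hqp : q = p := by
    by_contra hne
    have : Fact q.Prime := ⟨hq⟩
    obtain ⟨n, hn⟩ := (IsPGroup.iff_card (p := q)).1 hNq
    have hpL : ¬ p ∣ Nat.card L := by
      rw [hcardL]
      intro hdvd
      rcases hp.out.dvd_mul.1 hdvd with h | h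
      · exact hVp h
      · rw [hn] at h
        exact hne ((Nat.prime_dvd_prime_iff_eq hp.out hq).1 (hp.out.dvd_of_dvd_pow h)).symm
    have h1 := hVmax L ⟨hLn, hpL, hKV.trans hVL⟩ hVL
    rw [h1] at hcardL
    have h2 : Nat.card N = 1 := by
      have h3 : 0 < Nat.card V := Nat.card_pos
      exact Nat.eq_of_mul_eq_mul_left h3 (by rw [← hcardL, mul_one])
    exact hN1 (Subgroup.card_eq_one.1 h2)
  subst hqp
  have := hLn
  -- Frattini argument with a Sylow `q`-subgroup of `L`
  obtain ⟨n, hn⟩ := (IsPGroup.iff_card (p := q)).1 hNq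
  obtain ⟨P⟩ : Nonempty (Sylow q L) := inferInstance
  have hPcard : q ^ n ∣ Nat.card (P : Subgroup L) :=
    P.pow_dvd_card_of_pow_dvd_card (by rw [hcardL, hn]; exact dvd_mul_left _ _)
  set Q : Subgroup X := (P : Subgroup L).map L.subtype with hQ
  have hQp : IsPGroup q ↥Q := P.isPGroup'.map _
  have hQcard : q ^ n ∣ Nat.card Q := by
    rw [hQ, Subgroup.card_map_of_injective L.subtype_injective]
    exact hPcard
  have hQL : Q ≤ L := Subgroup.map_subtype_le _
  have hfr : normalizer (Q : Set X) ⊔ L = ⊤ := P.normalizer_sup_eq_top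
  have hn0 : n ≠ 0 := by
    rintro rfl
    rw [pow_zero] at hn
    exact hN1 (Subgroup.card_eq_one.1 hn)
  have hQ1 : Q ≠ ⊥ := by
    intro h0
    rw [h0, Subgroup.card_bot] at hQcard
    exact hn0 (Nat.eq_zero_of_not_pos fun h => by
      have := (dvd_pow_self q h.ne').trans hQcard
      exact hp.out.one_lt.ne' (Nat.dvd_one.1 this))
  obtain ⟨g, hg⟩ := exists_conj_mem hM hQp
  -- conjugate `M`
  set M' : Subgroup X := M.map (MulAut.conj g⁻¹).toMonoidHom with hM'
  have hM'e : IsStronglyPEmbedded q M' := map_equiv (MulAut.conj g⁻¹) hM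
  have hQM' : Q ≤ M' := by
    intro x hx
    refine ⟨MulAut.conj g x, hg ⟨x, hx, rfl⟩, ?_⟩
    change g⁻¹ * (g * x * g⁻¹) * g⁻¹⁻¹ = x
    group
  have hVM' : V ≤ M' := hle M' hM'e V hVn hVp
  have hLM' : L ≤ M' := by
    have h1 : Nat.card L ∣ Nat.card ↥(M' ⊓ L) := by
      rw [hcardL, hn]
      refine Nat.Coprime.mul_dvd_of_dvd_of_dvd ?_ (card_dvd_of_le (le_inf hVM' hVL))
        (hQcard.trans (card_dvd_of_le (le_inf hQM' hQL)))
      exact hp.out.coprime_pow_of_not_dvd hVp
    have h2 : Nat.card L ≤ Nat.card ↥(M' ⊓ L) := Nat.le_of_dvd Nat.card_pos h1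
    have h3 : M' ⊓ L = L := Subgroup.eq_of_le_of_card_ge inf_le_right h2
    exact inf_eq_right.1 h3
  apply hM'e.2.1
  rw [eq_top_iff, ← hfr]
  exact sup_le (normalizer_le hM'e hQM' hQp hQ1) hLM'

end Cfsg.Agent.H822.StrP
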